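import Mathlib
import Cfsg.Agent.Lib.Frob.TwoFrob
import Cfsg.Agent.Lib.Cls.PiClasses
import Cfsg.Agent.Lib.PGrp.Aut
import Cfsg.Agent.Lib.PGrp.RankOne
import Cfsg.Agent.Lib.Char.Burnside

/-!
# Solvable Frobenius complements

A Frobenius complement is solvable iff it has at most one subgroup of order `p` for every prime
`p ≥ 5`.
-/

set_option autoImplicit false
set_option linter.unusedSectionVars false

namespace Cfsg.Agent.Frob

open Cfsg Subgroup
open scoped Pointwise commutatorElement

universe u

section

variable {G : Type*} [Group G] [Finite G]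

/-- A coprime operator group of a cyclic `q`-group with a non-trivial fixed point acts trivially. -/
theorem le_centralizer_of_isCyclic {q : ℕ} [Fact q.Prime] {Q A : Subgroup G} (hQ : IsPGroup q Q)
    (hc : IsCyclic Q) (hAQ : A ≤ normalizer (Q : Set G))
    (hcop : (Nat.card Q).Coprime (Nat.card A)) {z : G} (hz : z ∈ Q) (z1 : z ≠ 1)
    (hzA : z ∈ centralizer (A : Set G)) : A ≤ centralizer (Q : Set G) := by
  rcases hQ.commutator_eq_bot_or_commutator_eq_self hAQ hcop with h | h
  · exact commutator_eq_bot_iff_le_centralizer.1 h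
  · exfalso
    have h1 := Coprime.centralizer_inf_commutator_eq_bot hAQ hcop.symm inferInstance
    rw [commutator_comm, h] at h1
    have : z ∈ Q ⊓ centralizer (A : Set G) ⊓ Q := ⟨⟨hz, hzA⟩, hz⟩
    rw [h1] at this
    exact z1 (mem_bot.1 this)

/-- An automorphism of order prime to `6` of a `2`-group generated by two elements is trivial. -/
theorem not_dvd_card_mulAut_of_two_gen {Q : Type*} [Group Q] [Finite Q] (hQ : IsPGroup 2 Q)
    {x y : Q} (hxy : closure ({x, y} : Set Q) = ⊤) {p : ℕ} (hp : p.Prime) (h5 : 5 ≤ p) :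
    ¬ p ∣ Nat.card (MulAut Q) := by
  classical
  obtain ⟨n, hn⟩ := hQ.exists_card_eq
  have hr := PGrp.index_frattini_eq_pow_rank hQ
  have hle : (frattini Q).index ≤ 2 ^ ({x, y} : Finset Q).card :=
    PGrp.index_frattini_le_of_closure_eq_top hQ (by simpa using hxy)
  have h2 : Group.rank Q ≤ 2 := by
    rw [hr] at hle
    exact ((Nat.pow_le_pow_iff_right (by norm_num)).1 hle).trans Finset.card_le_two
  have hd := PGrp.card_mulAut_dvd hn hr
  intro h
  have h3 := h.trans hd
  have hp2 : ¬ p ∣ 2 := fun h => by have := Nat.le_of_dvd two_pos h; omega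
  have hp3 : ¬ p ∣ 3 := fun h => by have := Nat.le_of_dvd three_pos h; omega
  rcases (Nat.Prime.dvd_mul hp).1 h3 with h4 | h4
  · exact hp2 (hp.dvd_of_dvd_pow h4)
  · generalize Group.rank Q = r at h2 h4
    interval_cases r
    · simp at h4; omega
    · simp at h4; omega
    · have h6 : p ∣ 3 * 2 := by simpa [Finset.prod_range_succ] using h4
      rcases (Nat.Prime.dvd_mul hp).1 h6 with h | h
      · exact hp3 h
      · exact hp2 h

/-- In a Frobenius complement an element of prime order `p ≥ 5` centralizes every subgroup of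
prime power order it normalizes. -/
theorem IsFC.mem_centralizer_of_five_le (h : IsFC G) {p q : ℕ} (hp : p.Prime) (h5 : 5 ≤ p)
    [hq : Fact q.Prime] {a : G} (ha : orderOf a = p) {Q : Subgroup G} (hQ : IsPGroup q Q)
    (hn : a ∈ normalizer (Q : Set G)) : a ∈ centralizer (Q : Set G) := by
  have := Fact.mk hp
  have hA : zpowers a ≤ normalizer (Q : Set G) := zpowers_le.2 hn
  have hpA : IsPGroup p (zpowers a) := Core.isPGroup_zpowers_of_orderOf (k := 1) (by simpa using ha)
  by_cases hpq : q = p
  · subst hpq
    have h1 : IsPGroup q ↥(zpowers a ⊔ Q) := hpA.to_sup_of_normal_right' hQ hA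
    have h2 := h.isCyclic_of_odd (by omega) h1
    intro y hy
    have := mul_comm' (⟨y, mem_sup_right hy⟩ : ↥(zpowers a ⊔ Q)) ⟨a, mem_sup_left (mem_zpowers a)⟩
    exact congrArg Subtype.val this
  have hcop : (Nat.card Q).Coprime (Nat.card (zpowers a)) := by
    obtain ⟨k, hk⟩ := hQ.exists_card_eq
    rw [hk, Nat.card_zpowers, ha]
    exact Nat.Coprime.pow_left _ ((Nat.coprime_primes hq.out hp).2 hpq)
  rcases eq_or_ne Q ⊥ with rfl | hQ0
  · intro y hy
    rw [mem_bot.1 hy, one_mul, mul_one]
  rcases PGrp.isCyclic_or_quaternion_gens_of_rank_le_one hQ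
    (PGrp.pRankLE_subgroup (h.pRankLE q) Q) with hc | ⟨rfl, n, x, y, hn2, hcard, hx, hy, -, -⟩
  · have a1 : a ≠ 1 := by rintro rfl; rw [orderOf_one] at ha; omega
    have h1 : ¬ IsFrobPair Q (zpowers a) := h.not_isFrobPair
    have h2 : ¬ ∀ b ∈ zpowers a, b ≠ 1 → ∀ k ∈ Q, b * k = k * b → k = 1 := fun h2 =>
      h1 ⟨hA, hQ0, by simpa using a1, h2⟩
    push Not at h2
    obtain ⟨b, hb, b1, k, hk, hbk, k1⟩ := h2
    have h3 := zpowers_eq_of_prime_orderOf (ha ▸ hp) hb b1
    refine le_centralizer_of_isCyclic hQ hc hA hcop hk k1 ?_ (mem_zpowers a)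
    rw [← h3]
    rintro _ ⟨i, rfl⟩
    exact ((show Commute b k from hbk).zpow_left i).eq
  · have hi : (zpowers x).index = 2 := by
      have := (zpowers x).card_mul_index
      rw [Nat.card_zpowers, hx, hcard, pow_succ] at this
      exact Nat.eq_of_mul_eq_mul_left (by positivity) this
    have hxy : closure ({x, y} : Set Q) = ⊤ := by
      have hle : zpowers x ≤ closure ({x, y} : Set Q) :=
        zpowers_le.2 (subset_closure (by simp))
      have h3 := index_dvd_of_le hle
      rw [hi] at h3
      rcases (Nat.dvd_prime Nat.prime_two).1 h3 with h4 | h4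
      · exact index_eq_one.1 h4
      · exfalso
        have h5 := relIndex_mul_index hle
        rw [h4, hi] at h5
        have h6 : (zpowers x).relIndex (closure ({x, y} : Set Q)) = 1 := by omega
        exact hy (relIndex_eq_one.1 h6 (subset_closure (by simp)))
    have h1 := not_dvd_card_mulAut_of_two_gen hQ hxy hp h5
    have h2 : Q.normalizerMonoidHom ⟨a, hn⟩ = 1 := by
      have h3 : orderOf (Q.normalizerMonoidHom ⟨a, hn⟩) ∣ p := by
        rw [← ha, ← Subgroup.orderOf_mk a hn]
        exact orderOf_map_dvd _ _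
      rcases (Nat.dvd_prime hp).1 h3 with h4 | h4
      · exact orderOf_eq_one_iff.1 h4
      · exact absurd (h4 ▸ orderOf_dvd_natCard _) h1
    have h3 : (⟨a, hn⟩ : normalizer (Q : Set G)) ∈ Q.normalizerMonoidHom.ker := h2
    rw [normalizerMonoidHom_ker] at h3
    exact h3

/-- In a solvable Frobenius complement there is at most one subgroup of prime order `p ≥ 5`. -/
theorem IsFC.mem_zpowers_of_isSolvable (h : IsFC G) (hs : Group.IsSolvable G) {p : ℕ}
    (hp : p.Prime) (h5 : 5 ≤ p) {x y : G} (hx : orderOf x = p) (hy : orderOf y = p) :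
    y ∈ zpowers x := by
  have := Fact.mk hp
  have key : ∀ a : G, orderOf a = p → a ∈ pCore p G := fun a ha => by
    have h1 : fittingSubgroup G ≤ centralizer {a} :=
      Core.fitting_le_of_forall_pCore_le fun q hq y hy => mem_centralizer_singleton_iff.2
        (h.mem_centralizer_of_five_le hp h5 ha (Core.isPGroup_pCore q)
          (by rw [normalizer_eq_top]; trivial) y hy)
    have h2 : a ∈ fittingSubgroup G :=
      Core.centralizer_fitting_le fun y hy => mem_centralizer_singleton_iff.1 (h1 hy)
    exact Core.le_pCore_of_le_fitting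
      (Core.isPGroup_zpowers_of_orderOf (k := 1) (by simpa using ha)) (zpowers_le.2 h2)
      (mem_zpowers a)
  have hc := h.isCyclic_of_odd (by omega) (Core.isPGroup_pCore p)
  refine h.mem_zpowers_of_commute hp hx (hy ▸ pow_orderOf_eq_one y) ?_
  exact congrArg Subtype.val (mul_comm' (⟨x, key x hx⟩ : pCore p G) ⟨y, key y hy⟩)

end

theorem isSolvable_of_unique_aux (n : ℕ) : ∀ (G : Type u) [Group G] [Finite G], Nat.card G = n →
    IsFC G → (∀ p : ℕ, p.Prime → 5 ≤ p → ∀ x y : G, orderOf x = p → orderOf y = p →
      y ∈ zpowers x) → Group.IsSolvable G := by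
  induction n using Nat.strong_induction_on with
  | _ n ih =>
    intro G _ _ hn h hu
    have ih' : ∀ M : Subgroup G, M ≠ ⊤ → Group.IsSolvable M := fun M hM => by
      refine ih _ (hn ▸ (Core.card_lt_of_ne_top hM)) M rfl (h.subgroup M) fun p hp h5 x y hx hy => ?_
      obtain ⟨k, hk⟩ := hu p hp h5 x y (by simpa using hx) (by simpa using hy)
      exact ⟨k, Subtype.ext (by simpa using hk)⟩
    by_cases h5 : ∃ p : ℕ, p.Prime ∧ p ∣ Nat.card G ∧ 5 ≤ p
    swap
    · push Not at h5
      refine Char.solvable_of_two_primes Nat.prime_two Nat.prime_three fun r hr hd => ?_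
      have h1 := h5 r hr hd
      have h2 := hr.two_le
      interval_cases r
      · simp
      · simp
      · exact absurd hr (by norm_num)
    obtain ⟨p, hp, hd, h5⟩ := h5
    have := Fact.mk hp
    obtain ⟨x, hx⟩ := exists_prime_orderOf_dvd_card' p hd
    have hnorm : (zpowers x).Normal := ⟨fun y hy g => by
      obtain ⟨k, rfl⟩ := hy
      have h1 : g * x * g⁻¹ ∈ zpowers x := hu p hp h5 x _ hx (by
        rw [← hx]; exact (MulAut.conj g).orderOf_eq x)
      have := (zpowers x).zpow_mem h1 k
      rwa [conj_zpow] at this⟩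
    by_cases hC : centralizer (zpowers x : Set G) = ⊤
    · obtain ⟨P, hP⟩ := (Core.isPGroup_zpowers_of_orderOf (k := 1) (by simpa using hx :
        orderOf x = p ^ 1)).exists_le_sylow
      have hPc := h.isCyclic_of_odd (by omega) P.2
      have x1 : x ≠ 1 := by rintro rfl; rw [orderOf_one] at hx; omega
      have hN : normalizer ((P : Subgroup G) : Set G) ≤ centralizer ((P : Subgroup G) : Set G) := by
        refine Core.le_of_forall_isPGroup_le fun q hq Q hQN hQ => ?_
        by_cases hqp : q = p
        · subst hqp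
          have h1 : Q ≤ P := le_sup_left.trans
            (P.3 (hQ.to_sup_of_normal_right' P.2 hQN) le_sup_right).le
          exact h1.trans (P : Subgroup G).le_centralizer
        · refine le_centralizer_of_isCyclic P.2 hPc hQN
            (IsPGroup.coprime_card_of_ne p q (Ne.symm hqp) _ _ P.2 hQ) (hP (mem_zpowers x)) x1 ?_
          intro y _
          exact ((hC ▸ mem_top y : y ∈ centralizer (zpowers x : Set G)) x (mem_zpowers x)).symm
      obtain ⟨P', M, hM, hc⟩ := Cls.hasNormalPComplement_of_normalizer_le_centralizer P hN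
      have hM1 : M ≠ ⊤ := by
        rintro rfl
        have h1 := hc.symm.index_eq_card
        rw [index_top] at h1
        exact P'.ne_bot_of_dvd_card hd (eq_bot_of_card_eq _ h1.symm)
      have h1 := ih' M hM1
      have h2 : IsPGroup p (G ⧸ M) := by
        obtain ⟨k, hk⟩ := P'.2.exists_card_eq
        exact IsPGroup.of_card (n := k) (by rw [← index_eq_card, hc.symm.index_eq_card, hk])
      have := h2.isNilpotent
      exact Group.isSolvable_of_ker_le_range M.subtype (QuotientGroup.mk' M) (by simp)
    · have h1 := ih' _ hC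
      have h2 : IsMulCommutative (G ⧸ centralizer (zpowers x : Set G)) := by
        rw [PGrp.isMulCommutative_quotient_iff, _root_.commutator_def, commutator_le]
        intro a _ b _
        exact commutator_mem_centralizer_of_isCyclic (by rw [normalizer_eq_top]; trivial)
          (by rw [normalizer_eq_top]; trivial)
      have := Core.isNilpotent_of_isMulCommutative (G := G ⧸ centralizer (zpowers x : Set G))
      exact Group.isSolvable_of_ker_le_range (centralizer (zpowers x : Set G)).subtype
        (QuotientGroup.mk' (centralizer (zpowers x : Set G))) (by simp)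

/-- A Frobenius complement is solvable iff it has at most one subgroup of order `p` for every
prime `p ≥ 5`. -/
theorem IsFC.isSolvable_iff {G : Type*} [Group G] [Finite G] (h : IsFC G) :
    Group.IsSolvable G ↔ ∀ p : ℕ, p.Prime → 5 ≤ p → ∀ x y : G, orderOf x = p → orderOf y = p →
      y ∈ zpowers x :=
  ⟨fun hs _ hp h5 _ _ hx hy => h.mem_zpowers_of_isSolvable hs hp h5 hx hy,
    isSolvable_of_unique_aux _ G rfl h⟩

end Cfsg.Agent.Frob
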